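import Mathlib

set_option autoImplicit false

open Complex Matrix
open scoped Real

namespace Cfsg.Agent.Theta

variable {n : ℕ}

/-- The quadratic form of a real matrix. -/
def qf (A : Matrix (Fin n) (Fin n) ℝ) (x : Fin n → ℝ) : ℝ := x ⬝ᵥ (A *ᵥ x)

/-- Positivity of the form, in elementary terms. -/
structure IsPos (A : Matrix (Fin n) (Fin n) ℝ) : Prop where
  symm : A.IsSymm
  pos : ∀ x : Fin n → ℝ, x ≠ 0 → 0 < x ⬝ᵥ (A *ᵥ x)

lemma IsPos.det_ne_zero {A : Matrix (Fin n) (Fin n) ℝ} (hA : IsPos A) : A.det ≠ 0 := by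
  intro h
  obtain ⟨v, hv, hv'⟩ := Matrix.exists_mulVec_eq_zero_iff.2 h
  have := hA.pos v hv
  simp [hv'] at this

lemma dot_mulVec_symm {R : Type*} [CommRing R] {A : Matrix (Fin n) (Fin n) R} (hA : A.IsSymm)
    (x y : Fin n → R) : x ⬝ᵥ (A *ᵥ y) = y ⬝ᵥ (A *ᵥ x) := by
  rw [Matrix.dotProduct_mulVec, ← Matrix.mulVec_transpose, hA.eq, dotProduct_comm]

lemma IsPos.nonneg {A : Matrix (Fin n) (Fin n) ℝ} (hA : IsPos A) (x : Fin n → ℝ) :
    0 ≤ x ⬝ᵥ (A *ᵥ x) := by
  by_cases h : x = 0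
  · simp [h]
  · exact (hA.pos x h).le

/-- A coordinatewise lower bound for a positive form. -/
lemma IsPos.exists_lower {A : Matrix (Fin n) (Fin n) ℝ} (hA : IsPos A) :
    ∃ ε : ℝ, 0 < ε ∧ ∀ x : Fin n → ℝ, ε * ∑ i, x i ^ 2 ≤ x ⬝ᵥ (A *ᵥ x) := by
  classical
  have hu : IsUnit A.det := (hA.det_ne_zero).isUnit
  let g : Fin n → ℝ := fun i ↦ A⁻¹ i i
  have hAe : ∀ i, A *ᵥ (A⁻¹ *ᵥ (Pi.single i 1)) = Pi.single i (1 : ℝ) := fun i ↦ by
    rw [Matrix.mulVec_mulVec, Matrix.mul_nonsing_inv _ hu, Matrix.one_mulVec]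
  have hg : ∀ i, (A⁻¹ *ᵥ Pi.single i 1) ⬝ᵥ (A *ᵥ (A⁻¹ *ᵥ Pi.single i 1)) = g i := fun i ↦ by
    rw [hAe, dotProduct_single, mul_one, Matrix.mulVec_single_one]
    rfl
  have hgp : ∀ i, 0 < g i := fun i ↦ by
    rw [← hg i]
    refine hA.pos _ fun h ↦ ?_
    have := hAe i
    rw [h, Matrix.mulVec_zero] at this
    simpa using congrFun this i
  have key : ∀ (x : Fin n → ℝ) i, x i ^ 2 ≤ g i * (x ⬝ᵥ (A *ᵥ x)) := by
    intro x i
    set w := A⁻¹ *ᵥ (Pi.single i (1 : ℝ))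
    have h := hA.nonneg (x - (x i / g i) • w)
    have e1 : x ⬝ᵥ (A *ᵥ w) = x i := by rw [hAe]; simp
    have e2 : w ⬝ᵥ (A *ᵥ x) = x i := by rw [dot_mulVec_symm hA.symm, e1]
    have e3 : w ⬝ᵥ (A *ᵥ w) = g i := hg i
    simp only [Matrix.mulVec_sub, Matrix.mulVec_smul, sub_dotProduct, dotProduct_sub,
      smul_dotProduct, dotProduct_smul, smul_eq_mul, e1, e2, e3] at h
    have := hgp i
    field_simp at h
    nlinarith
  set G := ∑ i, g i + 1
  have hG : 0 < G := by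
    have : 0 ≤ ∑ i, g i := Finset.sum_nonneg fun i _ ↦ (hgp i).le
    positivity
  refine ⟨G⁻¹, inv_pos.2 hG, fun x ↦ ?_⟩
  rw [inv_mul_le_iff₀ hG]
  calc ∑ i, x i ^ 2 ≤ ∑ i, g i * (x ⬝ᵥ (A *ᵥ x)) := Finset.sum_le_sum fun i _ ↦ key x i
    _ = (∑ i, g i) * (x ⬝ᵥ (A *ᵥ x)) := (Finset.sum_mul ..).symm
    _ ≤ G * (x ⬝ᵥ (A *ᵥ x)) := mul_le_mul_of_nonneg_right (by simp [G]) (hA.nonneg x)

lemma summable_gauss_int {ε : ℝ} (hε : 0 < ε) (β : ℝ) :
    Summable fun m : ℤ ↦ Real.exp (-π * ε * (m : ℝ) ^ 2 + 2 * π * β * m) := by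
  have h := ((summable_jacobiTheta₂_term_iff (-(β : ℂ) * I) ((ε : ℂ) * I)).2 (by simpa using hε)).norm
  refine h.congr fun m ↦ ?_
  rw [jacobiTheta₂_term, Complex.norm_exp]
  congr 1
  simp [← ofReal_intCast, sq]
  ring

lemma summable_pi {n : ℕ} {f : Fin n → ℤ → ℝ} (hf : ∀ i, Summable (f i)) (h0 : ∀ i m, 0 ≤ f i m) :
    Summable fun x : Fin n → ℤ ↦ ∏ i, f i (x i) := by
  induction n with
  | zero => exact Summable.of_finite
  | succ n ih =>
    refine (Equiv.summable_iff (Fin.consEquiv fun _ ↦ ℤ)).1 ?_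
    refine ((hf 0).mul_of_nonneg (ih (fun i ↦ hf i.succ) fun i m ↦ h0 _ m) (fun m ↦ h0 0 m)
      fun x ↦ Finset.prod_nonneg fun i _ ↦ h0 _ _).congr fun p ↦ ?_
    simp [Fin.consEquiv, Fin.prod_univ_succ]

/-- Cast of an integer vector. -/
abbrev rv (x : Fin n → ℤ) : Fin n → ℝ := fun i ↦ (x i : ℝ)

/-- Cast of an integer vector. -/
abbrev cv (x : Fin n → ℤ) : Fin n → ℂ := fun i ↦ (x i : ℂ)

lemma summable_gauss {A : Matrix (Fin n) (Fin n) ℝ} (hA : IsPos A) {t : ℝ} (ht : 0 < t)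
    (β : Fin n → ℝ) :
    Summable fun x : Fin n → ℤ ↦ Real.exp (-π * t * qf A (rv x) + 2 * π * (β ⬝ᵥ rv x)) := by
  obtain ⟨ε, hε, hle⟩ := hA.exists_lower
  refine Summable.of_nonneg_of_le (fun x ↦ (Real.exp_pos _).le) (fun x ↦ ?_)
    (summable_pi (fun i ↦ summable_gauss_int (mul_pos ht hε) (β i))
      fun i m ↦ (Real.exp_pos _).le)
  rw [← Real.exp_sum]
  refine Real.exp_le_exp.2 ?_
  rw [Finset.sum_add_distrib]
  refine add_le_add ?_ (le_of_eq ?_)
  · rw [← Finset.mul_sum]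
    have := mul_le_mul_of_nonneg_left (hle (rv x)) (mul_nonneg Real.pi_pos.le ht.le)
    simp only [qf]
    nlinarith
  · simp [dotProduct, Finset.mul_sum, mul_assoc]

/-- The complexified quadratic form. -/
noncomputable def cqf (A : Matrix (Fin n) (Fin n) ℝ) (x : Fin n → ℂ) : ℂ :=
  x ⬝ᵥ (A.map Complex.ofReal *ᵥ x)

lemma cqf_cv (A : Matrix (Fin n) (Fin n) ℝ) (x : Fin n → ℤ) :
    cqf A (cv x) = (qf A (rv x) : ℂ) := by
  simp [cqf, qf, dotProduct, Matrix.mulVec, cv, rv]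

lemma norm_gauss_term (A : Matrix (Fin n) (Fin n) ℝ) (t : ℝ) (b : Fin n → ℂ) (x : Fin n → ℤ) :
    ‖cexp (-π * t * cqf A (cv x) + 2 * π * (b ⬝ᵥ cv x))‖ =
      Real.exp (-π * t * qf A (rv x) + 2 * π * ((fun i ↦ (b i).re) ⬝ᵥ rv x)) := by
  rw [Complex.norm_exp, cqf_cv]
  congr 1
  simp [dotProduct, Complex.re_sum, cv, rv, ← ofReal_intCast]

/-- The head, the row and the Schur complement of a form in `n+1` variables. -/
noncomputable def schur (A : Matrix (Fin (n + 1)) (Fin (n + 1)) ℝ) : Matrix (Fin n) (Fin n) ℝ :=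
  Matrix.of fun i j ↦ A i.succ j.succ - A i.succ 0 * A 0 j.succ / A 0 0

lemma IsPos.head {A : Matrix (Fin (n + 1)) (Fin (n + 1)) ℝ} (hA : IsPos A) : 0 < A 0 0 := by
  have := hA.pos (Pi.single 0 1) (by simp)
  simpa using this

lemma IsPos.schur {A : Matrix (Fin (n + 1)) (Fin (n + 1)) ℝ} (hA : IsPos A) :
    IsPos (schur A) := by
  have ha := hA.head
  refine ⟨Matrix.IsSymm.ext fun i j ↦ ?_, fun x hx ↦ ?_⟩
  · simp only [Theta.schur, Matrix.of_apply, hA.symm.apply]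
    ring
  · let c : ℝ := ∑ j, A 0 j.succ * x j
    let y : Fin (n + 1) → ℝ := Fin.cons (-c / A 0 0) x
    have hy : y ≠ 0 := fun h ↦ hx (funext fun i ↦ by simpa [y] using congrFun h i.succ)
    refine lt_of_lt_of_eq (hA.pos y hy) ?_
    have h0 : (A *ᵥ y) 0 = 0 := by
      simp [Matrix.mulVec, dotProduct, Fin.sum_univ_succ, y, c]
      field_simp
      ring
    rw [dotProduct, Fin.sum_univ_succ, h0, mul_zero, zero_add]
    refine Finset.sum_congr rfl fun i _ ↦ ?_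
    simp only [y, Fin.cons_succ]
    congr 1
    simp only [Matrix.mulVec, dotProduct, Fin.sum_univ_succ, Fin.cons_zero, Fin.cons_succ,
      Theta.schur, Matrix.of_apply, sub_mul, Finset.sum_sub_distrib]
    rw [sub_eq_add_neg, add_comm]
    congr 1
    simp only [c, neg_div, mul_neg, Finset.sum_div, Finset.mul_sum]
    congr 1
    exact Finset.sum_congr rfl fun j _ ↦ by ring

lemma map_inv_mulVec {A : Matrix (Fin n) (Fin n) ℝ} (hA : IsPos A) {w z : Fin n → ℂ}
    (h : A.map Complex.ofReal *ᵥ w = z) : (A⁻¹).map Complex.ofReal *ᵥ z = w := by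
  rw [← h, Matrix.mulVec_mulVec]
  have : (A⁻¹).map Complex.ofReal * A.map Complex.ofReal = 1 := by
    change A⁻¹.map ⇑Complex.ofRealHom * A.map ⇑Complex.ofRealHom = 1
    rw [← Matrix.map_mul (f := Complex.ofRealHom), Matrix.nonsing_inv_mul _ hA.det_ne_zero.isUnit]
    simp
  rw [this, Matrix.one_mulVec]

lemma map_mulVec_inv {A : Matrix (Fin n) (Fin n) ℝ} (hA : IsPos A) (z : Fin n → ℂ) :
    A.map Complex.ofReal *ᵥ ((A⁻¹).map Complex.ofReal *ᵥ z) = z := by
  rw [Matrix.mulVec_mulVec]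
  have : A.map Complex.ofReal * (A⁻¹).map Complex.ofReal = 1 := by
    change A.map ⇑Complex.ofRealHom * A⁻¹.map ⇑Complex.ofRealHom = 1
    rw [← Matrix.map_mul (f := Complex.ofRealHom), Matrix.mul_nonsing_inv _ hA.det_ne_zero.isUnit]
    simp
  rw [this, Matrix.one_mulVec]

/-- Splitting off the first coordinate of the inverse form. -/
lemma cqf_inv_cons {A : Matrix (Fin (n + 1)) (Fin (n + 1)) ℝ} (hA : IsPos A) (u : ℂ)
    (v : Fin n → ℂ) :
    cqf A⁻¹ (Fin.cons u v) = u ^ 2 / A 0 0 +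
      cqf (schur A)⁻¹ (fun i ↦ v i - u * A 0 i.succ / A 0 0) := by
  have ha : (A 0 0 : ℂ) ≠ 0 := by exact_mod_cast hA.head.ne'
  set s : Fin n → ℂ := fun i ↦ v i - u * A 0 i.succ / A 0 0 with hs
  set w := ((schur A)⁻¹).map Complex.ofReal *ᵥ s with hw
  set w0 : ℂ := (u - ∑ j, (A 0 j.succ : ℂ) * w j) / A 0 0 with hw0
  have hsw : (schur A).map Complex.ofReal *ᵥ w = s := map_mulVec_inv hA.schur s
  have hz : A.map Complex.ofReal *ᵥ Fin.cons w0 w = Fin.cons u v := by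
    funext i
    refine Fin.cases ?_ (fun i ↦ ?_) i
    · simp only [Matrix.mulVec, dotProduct, Fin.sum_univ_succ, Fin.cons_zero, Fin.cons_succ,
        Matrix.map_apply, hw0]
      field_simp
      ring
    · have hi := congrFun hsw i
      simp only [Matrix.mulVec, dotProduct, Matrix.map_apply, Theta.schur, Matrix.of_apply,
        hs, ofReal_sub, ofReal_mul, ofReal_div, sub_mul, Finset.sum_sub_distrib] at hi
      simp only [Matrix.mulVec, dotProduct, Fin.sum_univ_succ, Fin.cons_zero, Fin.cons_succ,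
        Matrix.map_apply, hw0]
      have h2 : ∑ j, (A i.succ 0 : ℂ) * A 0 j.succ / A 0 0 * w j =
          (A i.succ 0 : ℂ) / A 0 0 * ∑ j, (A 0 j.succ : ℂ) * w j := by
        rw [Finset.mul_sum]; exact Finset.sum_congr rfl fun j _ ↦ by ring
      rw [h2, hA.symm.apply 0 i.succ] at hi
      rw [hA.symm.apply 0 i.succ]
      linear_combination hi
  rw [cqf, map_inv_mulVec hA hz, cqf, ← hw]
  simp only [dotProduct, Fin.sum_univ_succ, Fin.cons_zero, Fin.cons_succ, hw0, hs, sub_mul,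
    Finset.sum_sub_distrib]
  have h3 : ∑ j, u * (A 0 j.succ : ℂ) / A 0 0 * w j =
      u / A 0 0 * ∑ j, (A 0 j.succ : ℂ) * w j := by
    rw [Finset.mul_sum]; exact Finset.sum_congr rfl fun j _ ↦ by ring
  rw [h3]
  field_simp
  ring

lemma IsPos.inv {A : Matrix (Fin n) (Fin n) ℝ} (hA : IsPos A) : IsPos A⁻¹ := by
  refine ⟨by rw [Matrix.IsSymm, Matrix.transpose_nonsing_inv, hA.symm.eq], fun x hx ↦ ?_⟩
  have e : A *ᵥ (A⁻¹ *ᵥ x) = x := by
    rw [Matrix.mulVec_mulVec, Matrix.mul_nonsing_inv _ hA.det_ne_zero.isUnit, Matrix.one_mulVec]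
  have := hA.pos (A⁻¹ *ᵥ x) fun h ↦ hx (by rw [← e, h, Matrix.mulVec_zero])
  rwa [e, dotProduct_comm] at this

lemma cqf_cons {A : Matrix (Fin (n + 1)) (Fin (n + 1)) ℝ} (hA : IsPos A) (u : ℂ) (v : Fin n → ℂ) :
    cqf A (Fin.cons u v) = A 0 0 * u ^ 2 + 2 * u * (∑ j, (A 0 j.succ : ℂ) * v j) +
      ∑ i, v i * ∑ j, (A i.succ j.succ : ℂ) * v j := by
  simp only [cqf, dotProduct, Matrix.mulVec, Fin.sum_univ_succ, Fin.cons_zero, Fin.cons_succ,
    Matrix.map_apply, mul_add, Finset.sum_add_distrib]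
  have h : ∑ i, v i * ((A i.succ 0 : ℂ) * u) = u * ∑ j, (A 0 j.succ : ℂ) * v j := by
    rw [Finset.mul_sum]
    exact Finset.sum_congr rfl fun i _ ↦ by rw [hA.symm.apply 0 i.succ]; ring
  rw [h]; ring

lemma cqf_schur {A : Matrix (Fin (n + 1)) (Fin (n + 1)) ℝ} (hA : IsPos A) (v : Fin n → ℂ) :
    cqf (schur A) v = (∑ i, v i * ∑ j, (A i.succ j.succ : ℂ) * v j) -
      (∑ j, (A 0 j.succ : ℂ) * v j) ^ 2 / A 0 0 := by
  simp only [cqf, dotProduct, Matrix.mulVec, Matrix.map_apply, Theta.schur, Matrix.of_apply,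
    ofReal_sub, ofReal_mul, ofReal_div, sub_mul, Finset.sum_sub_distrib, mul_sub]
  congr 1
  rw [sq, Finset.sum_mul_sum, Finset.sum_div]
  refine Finset.sum_congr rfl fun i _ ↦ ?_
  rw [Finset.sum_div, Finset.mul_sum]
  refine Finset.sum_congr rfl fun j _ ↦ ?_
  rw [hA.symm.apply 0 i.succ]; ring

lemma summable_dual {A : Matrix (Fin n) (Fin n) ℝ} (hA : IsPos A) {t : ℝ} (ht : 0 < t)
    (b : Fin n → ℂ) :
    Summable fun k : Fin n → ℤ ↦ cexp (-π / t * cqf A⁻¹ (fun i ↦ (k i : ℂ) + I * b i)) := by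
  set M := (A⁻¹).map Complex.ofReal with hM
  have hs : M.IsSymm := hA.inv.symm.map _
  refine Summable.of_norm (((summable_gauss hA.inv (one_div_pos.2 ht)
    (fun i ↦ ((-I / t) * (M *ᵥ b) i).re)).mul_left
      ‖cexp (π / t * (b ⬝ᵥ (M *ᵥ b)))‖).congr fun k ↦ ?_)
  rw [← norm_gauss_term A⁻¹ (1 / t) (fun i ↦ (-I / t) * (M *ᵥ b) i) k, ← norm_mul, ← Complex.exp_add]
  congr 2
  have e : (fun i ↦ (k i : ℂ) + I * b i) = cv k + I • b := rfl
  have e2 : (fun i ↦ (-I / t) * (M *ᵥ b) i) = (-I / t : ℂ) • (M *ᵥ b) := rfl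
  rw [e, e2]
  simp only [cqf, ← hM, Matrix.mulVec_add, Matrix.mulVec_smul, add_dotProduct, dotProduct_add,
    smul_dotProduct, dotProduct_smul, smul_eq_mul, dot_mulVec_symm hs b (cv k),
    dotProduct_comm (M *ᵥ b) (cv k)]
  push_cast
  linear_combination ((π : ℂ) / t * (b ⬝ᵥ (M *ᵥ b))) * I_sq

lemma inner_sum {a t : ℝ} (ha : 0 < a) (ht : 0 < t) (β : ℂ) :
    ∑' m : ℤ, cexp (-π * t * a * (m : ℂ) ^ 2 + 2 * π * β * m) =
      ((Real.sqrt t)⁻¹ : ℝ) * ((Real.sqrt a)⁻¹ : ℝ) *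
        ∑' m : ℤ, cexp (-π / t * (((m : ℂ) + I * β) ^ 2 / a)) := by
  have hta : 0 < t * a := mul_pos ht ha
  have h := Complex.tsum_exp_neg_quadratic (a := ((t * a : ℝ) : ℂ)) (by simpa using hta) β
  have hs : (((t * a : ℝ) : ℂ)) ^ (1 / 2 : ℂ) = ((Real.sqrt (t * a) : ℝ) : ℂ) := by
    rw [Real.sqrt_eq_rpow, Complex.ofReal_cpow hta.le]
    norm_num
  rw [hs, Real.sqrt_mul ht.le] at h
  push_cast at h ⊢
  convert h using 1
  · refine tsum_congr fun m ↦ ?_
    congr 1; ring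
  · rw [one_div, mul_inv]
    congr 1
    refine tsum_congr fun m ↦ ?_
    congr 1; field_simp

/-- Multivariate Poisson summation for Gaussians, with an undetermined constant. -/
theorem poisson_gauss : ∀ {n : ℕ} (A : Matrix (Fin n) (Fin n) ℝ), IsPos A →
    ∃ C : ℂ, ∀ t : ℝ, 0 < t → ∀ b : Fin n → ℂ,
      ∑' x : Fin n → ℤ, cexp (-π * t * cqf A (cv x) + 2 * π * (b ⬝ᵥ cv x)) =
        C * (((Real.sqrt t)⁻¹ : ℝ) : ℂ) ^ n *
          ∑' k : Fin n → ℤ, cexp (-π / t * cqf A⁻¹ (fun i ↦ (k i : ℂ) + I * b i)) := by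
  intro n
  induction n with
  | zero =>
    intro A _
    exact ⟨1, fun t _ b ↦ by simp [cqf]⟩
  | succ n ih =>
    intro A hA
    obtain ⟨C, hC⟩ := ih (schur A) hA.schur
    set a := A 0 0 with ha'
    have ha : 0 < a := hA.head
    refine ⟨((Real.sqrt a)⁻¹ : ℝ) * C, fun t ht b ↦ ?_⟩
    set e := Fin.consEquiv (fun _ : Fin (n + 1) ↦ ℤ) with he
    set f : (Fin (n + 1) → ℤ) → ℂ :=
      fun x ↦ cexp (-π * t * cqf A (cv x) + 2 * π * (b ⬝ᵥ cv x)) with hf
    have hfsum : Summable f := by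
      refine Summable.of_norm ?_
      simp only [hf, norm_gauss_term]
      exact summable_gauss hA ht _
    set u : ℤ → ℂ := fun m ↦ (m : ℂ) + I * b 0 with hu
    set b2 : ℤ → Fin n → ℂ := fun m i ↦ b i.succ + I * (u m * A 0 i.succ / a) with hb2
    set F : ℤ → (Fin n → ℤ) → ℂ := fun m x ↦ cexp (-π / t * (u m ^ 2 / a)) *
      cexp (-π * t * cqf (schur A) (cv x) + 2 * π * (b2 m ⬝ᵥ cv x)) with hF
    have hFsum : Summable fun p : ℤ × (Fin n → ℤ) ↦ F p.1 p.2 := by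
      refine Summable.of_norm ?_
      have h1 : Summable fun m : ℤ ↦ ‖cexp (-π / t * (u m ^ 2 / a))‖ := by
        refine ((summable_gauss_int (div_pos one_pos (mul_pos ht ha)) ((b 0).im / (t * a))).mul_left
          (Real.exp (π / (t * a) * ((b 0).re ^ 2 - (b 0).im ^ 2)))).congr fun m ↦ ?_
        rw [← Real.exp_add, Complex.norm_exp]
        congr 1
        simp [hu, sq, ← ofReal_intCast, Complex.div_re, Complex.normSq_ofReal]
        field_simp
        ring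
      refine (h1.mul_of_nonneg (summable_gauss hA.schur ht
        (fun i ↦ (b i.succ).re - (b 0).re * A 0 i.succ / a)) (fun m ↦ norm_nonneg _)
        fun x ↦ (Real.exp_pos _).le).congr fun p ↦ ?_
      simp only [hF, norm_mul, norm_gauss_term]
      have : (fun i ↦ (b i.succ).re - (b 0).re * A 0 i.succ / a) = fun i ↦ (b2 p.1 i).re := ?_
      · rw [this]
      funext i
      simp [hb2, hu, ← ofReal_intCast]
      ring
    have hterm : ∀ (m : ℤ) (x : Fin n → ℤ),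
        f (e (m, x)) =
          cexp (-π * t * a * (m : ℂ) ^ 2 +
            2 * π * (b 0 - t * ∑ j, (A 0 j.succ : ℂ) * x j) * m) *
          cexp (-π * t * cqf (schur A) (cv x) + 2 * π * (∑ j, b j.succ * x j) -
            π * t * (∑ j, (A 0 j.succ : ℂ) * x j) ^ 2 / a) := by
      intro m x
      rw [← Complex.exp_add]
      simp only [hf, he, Fin.consEquiv, Equiv.coe_fn_mk]
      congr 1
      have hc : cv (Fin.cons m x : Fin (n + 1) → ℤ) = Fin.cons (m : ℂ) (cv x) := by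
        funext i; refine Fin.cases ?_ (fun j ↦ ?_) i <;> simp [cv]
      rw [hc, cqf_cons hA, cqf_schur hA, ← ha']
      simp only [dotProduct, Fin.sum_univ_succ, Fin.cons_zero, Fin.cons_succ, cv]
      ring
    calc ∑' x, f x = ∑' p : ℤ × (Fin n → ℤ), f (e p) := (e.tsum_eq f).symm
      _ = ∑' (x : Fin n → ℤ) (m : ℤ), f (e (m, x)) := by
          have h : Summable (fun p : ℤ × (Fin n → ℤ) ↦ f (e p)) := (e.summable_iff).2 hfsum
          rw [h.tsum_prod]
          exact (Summable.tsum_comm (f := fun (m : ℤ) (x : Fin n → ℤ) ↦ f (e (m, x))) h).symm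
      _ = ((Real.sqrt t)⁻¹ : ℝ) * ((Real.sqrt a)⁻¹ : ℝ) * ∑' (x : Fin n → ℤ) (m : ℤ), F m x := by
          rw [← tsum_mul_left]
          refine tsum_congr fun x ↦ ?_
          simp only [hterm, tsum_mul_right]
          rw [inner_sum ha ht, mul_assoc, ← tsum_mul_right]
          congr 1
          refine tsum_congr fun m ↦ ?_
          simp only [hF, ← Complex.exp_add]
          congr 1
          have hac : (a : ℂ) ≠ 0 := by exact_mod_cast ha.ne'
          have htc : (t : ℂ) ≠ 0 := by exact_mod_cast ht.ne'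
          have hd : b2 m ⬝ᵥ cv x =
              (∑ j, b j.succ * x j) + I * u m / a * ∑ j, (A 0 j.succ : ℂ) * x j := by
            simp only [hb2, dotProduct, cv, Finset.mul_sum, ← Finset.sum_add_distrib]
            exact Finset.sum_congr rfl fun j _ ↦ by ring
          rw [hd, hu]
          field_simp
          ring_nf
          simp [I_sq]
          ring
      _ = ((Real.sqrt t)⁻¹ : ℝ) * ((Real.sqrt a)⁻¹ : ℝ) * ∑' (m : ℤ) (x : Fin n → ℤ), F m x := by
          rw [Summable.tsum_comm (f := F) hFsum]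
      _ = ((Real.sqrt a)⁻¹ : ℝ) * C * (((Real.sqrt t)⁻¹ : ℝ) : ℂ) ^ (n + 1) *
            ∑' (m : ℤ) (k : Fin n → ℤ),
              cexp (-π / t * cqf A⁻¹ (Fin.cons (u m) fun i ↦ (k i : ℂ) + I * b i.succ)) := by
          rw [← tsum_mul_left, ← tsum_mul_left]
          refine tsum_congr fun m ↦ ?_
          simp only [hF, tsum_mul_left]
          rw [hC t ht (b2 m), pow_succ]
          have : ∀ k : Fin n → ℤ, (fun i ↦ (k i : ℂ) + I * b2 m i) =
              fun i ↦ (k i : ℂ) + I * b i.succ - u m * A 0 i.succ / A 0 0 := by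
            intro k; funext i
            simp only [hb2, ha']
            linear_combination (u m * A 0 i.succ / A 0 0) * I_sq
          simp only [this, cqf_inv_cons hA, mul_add, Complex.exp_add, tsum_mul_left]
          rw [ha']
          ring_nf
          congr 3
          funext k
          congr 5
          funext i
          ring
      _ = _ := by
          congr 1
          have h := summable_dual hA ht b
          rw [← e.tsum_eq]
          refine (Eq.trans (((e.summable_iff).2 h).tsum_prod) ?_).symm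
          refine tsum_congr fun m ↦ tsum_congr fun k ↦ ?_
          simp only [Function.comp_apply]
          congr 3
          funext i
          refine Fin.cases ?_ (fun j ↦ ?_) i <;> simp [he, hu, Fin.consEquiv]

end Cfsg.Agent.Theta
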