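import Mathlib
import Cfsg.Agent.Theta.Poisson

set_option autoImplicit false

open Complex Matrix Filter Topology
open UpperHalfPlane hiding I
open scoped Real MatrixGroups ModularForm

namespace Cfsg.Agent.Theta

/-- An even positive unimodular integral form in 24 variables. -/
structure EvenUnimodular (B : Matrix (Fin 24) (Fin 24) ℤ) : Prop where
  symm : B.IsSymm
  pos : ∀ x : Fin 24 → ℤ, x ≠ 0 → 0 < x ⬝ᵥ (B *ᵥ x)
  even : ∀ x : Fin 24 → ℤ, (2 : ℤ) ∣ x ⬝ᵥ (B *ᵥ x)
  det : B.det = 1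

variable {B : Matrix (Fin 24) (Fin 24) ℤ}

/-- The real matrix. -/
noncomputable def realMat (B : Matrix (Fin 24) (Fin 24) ℤ) : Matrix (Fin 24) (Fin 24) ℝ :=
  B.map ((↑) : ℤ → ℝ)

lemma qf_realMat (B : Matrix (Fin 24) (Fin 24) ℤ) (x : Fin 24 → ℤ) :
    qf (realMat B) (rv x) = ((x ⬝ᵥ (B *ᵥ x) : ℤ) : ℝ) := by
  simp [qf, realMat, dotProduct, Matrix.mulVec, rv]

lemma posSemidef_real (h : EvenUnimodular B) (x : Fin 24 → ℝ) : 0 ≤ x ⬝ᵥ (realMat B *ᵥ x) := by
  have hc : Continuous fun y : Fin 24 → ℝ ↦ y ⬝ᵥ (realMat B *ᵥ y) := by fun_prop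
  let a : ℕ → Fin 24 → ℝ := fun N i ↦ (⌊x i * N⌋ : ℝ) / N
  have ha : Tendsto a atTop (𝓝 x) := by
    refine tendsto_pi_nhds.2 fun i ↦ ?_
    have h1 : Tendsto (fun N : ℕ ↦ x i - 1 / (N : ℝ)) atTop (𝓝 (x i)) := by
      simpa using tendsto_const_nhds.sub (tendsto_one_div_atTop_nhds_zero_nat (𝕜 := ℝ))
    refine tendsto_of_tendsto_of_tendsto_of_le_of_le' h1 tendsto_const_nhds ?_ ?_
    · filter_upwards [eventually_gt_atTop 0] with N hN
      have : (0 : ℝ) < N := by exact_mod_cast hN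
      simp only [a]
      rw [le_div_iff₀ this, sub_mul, div_mul_cancel₀ _ this.ne']
      linarith [Int.lt_floor_add_one (x i * N)]
    · filter_upwards [eventually_gt_atTop 0] with N hN
      have : (0 : ℝ) < N := by exact_mod_cast hN
      simp only [a]
      rw [div_le_iff₀ this]
      exact Int.floor_le _
  refine ge_of_tendsto' ((hc.tendsto x).comp ha) fun N ↦ ?_
  let z : Fin 24 → ℤ := fun i ↦ ⌊x i * N⌋
  have : a N = ((N : ℝ)⁻¹) • rv z := by
    funext i; simp [a, z, rv, div_eq_inv_mul]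
  rw [Function.comp_apply, this]
  simp only [Matrix.mulVec_smul, smul_dotProduct, dotProduct_smul, smul_eq_mul]
  have hz : (0 : ℤ) ≤ z ⬝ᵥ (B *ᵥ z) := by
    by_cases hz : z = 0
    · simp [hz]
    · exact (h.pos z hz).le
  have hz' : (0 : ℝ) ≤ qf (realMat B) (rv z) := by rw [qf_realMat]; exact_mod_cast hz
  have hN : (0 : ℝ) ≤ (N : ℝ)⁻¹ := by positivity
  exact mul_nonneg hN (mul_nonneg hN hz')

lemma realMat_symm (h : EvenUnimodular B) : (realMat B).IsSymm := h.symm.map _

lemma realMat_det (h : EvenUnimodular B) : (realMat B).det = 1 := by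
  have := (Int.castRingHom ℝ).map_det B
  rw [h.det] at this
  simpa [realMat] using this.symm

lemma isPos_realMat (h : EvenUnimodular B) : IsPos (realMat B) := by
  refine ⟨realMat_symm h, fun x hx ↦ lt_of_le_of_ne (posSemidef_real h x) fun h0 ↦ hx ?_⟩
  set w := realMat B *ᵥ x with hw
  by_contra
  have hw0 : w ≠ 0 := fun e ↦ by
    have : (realMat B).det = 0 := Matrix.exists_mulVec_eq_zero_iff.1 ⟨x, hx, e⟩
    simp [realMat_det h] at this
  have hww : 0 < w ⬝ᵥ w := by
    obtain ⟨i, hi⟩ := Function.ne_iff.1 hw0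
    exact Finset.sum_pos' (fun j _ ↦ mul_self_nonneg _) ⟨i, Finset.mem_univ i, mul_self_pos.2 hi⟩
  set c := w ⬝ᵥ (realMat B *ᵥ w)
  have key : ∀ s : ℝ, 0 ≤ 2 * s * (w ⬝ᵥ w) + s ^ 2 * c := fun s ↦ by
    have := posSemidef_real h (x + s • w)
    simp only [Matrix.mulVec_add, Matrix.mulVec_smul, add_dotProduct, dotProduct_add,
      smul_dotProduct, dotProduct_smul, smul_eq_mul, dot_mulVec_symm (realMat_symm h) x w,
      ← hw, ← h0] at this
    linarith
  have hc : 0 ≤ c := posSemidef_real h w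
  have := key (-(w ⬝ᵥ w) / (c + 1))
  have hc1 : 0 < c + 1 := by linarith
  field_simp at this
  nlinarith [mul_pos hww hww]

/-- The integral norm. -/
abbrev Q (B : Matrix (Fin 24) (Fin 24) ℤ) (x : Fin 24 → ℤ) : ℤ := x ⬝ᵥ (B *ᵥ x)

/-- A lattice theta term. -/
noncomputable def term (B : Matrix (Fin 24) (Fin 24) ℤ) (x : Fin 24 → ℤ) (z : ℂ) : ℂ :=
  cexp (π * I * z * (Q B x : ℂ))

/-- The lattice theta function. -/
noncomputable def theta (B : Matrix (Fin 24) (Fin 24) ℤ) (z : ℂ) : ℂ :=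
  ∑' x : Fin 24 → ℤ, term B x z

lemma Q_nonneg (h : EvenUnimodular B) (x : Fin 24 → ℤ) : 0 ≤ Q B x := by
  by_cases hz : x = 0
  · simp [Q, hz]
  · exact (h.pos x hz).le

lemma summable_exp_Q (h : EvenUnimodular B) {δ : ℝ} (hδ : 0 < δ) :
    Summable fun x : Fin 24 → ℤ ↦ Real.exp (-π * δ * (Q B x : ℝ)) := by
  refine (summable_gauss (isPos_realMat h) hδ 0).congr fun x ↦ ?_
  simp [qf_realMat]

lemma norm_term (x : Fin 24 → ℤ) (z : ℂ) :
    ‖term B x z‖ = Real.exp (-π * z.im * (Q B x : ℝ)) := by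
  rw [term, Complex.norm_exp]
  simp [← ofReal_intCast]

lemma summable_term (h : EvenUnimodular B) {z : ℂ} (hz : 0 < z.im) :
    Summable fun x ↦ term B x z :=
  Summable.of_norm (by simpa only [norm_term] using summable_exp_Q h hz)

lemma differentiableOn_theta (h : EvenUnimodular B) :
    DifferentiableOn ℂ (theta B) {z : ℂ | 0 < z.im} := by
  intro z hz
  set δ := z.im / 2
  have hδ : 0 < δ := half_pos hz
  have hU : IsOpen {w : ℂ | δ < w.im} := isOpen_lt continuous_const Complex.continuous_im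
  have hd : DifferentiableOn ℂ (theta B) {w : ℂ | δ < w.im} := by
    refine differentiableOn_tsum_of_summable_norm (summable_exp_Q h hδ)
      (fun x ↦ by unfold term; fun_prop) hU fun x w hw ↦ ?_
    rw [norm_term]
    refine Real.exp_le_exp.2 ?_
    have : (0 : ℝ) ≤ Q B x := by exact_mod_cast Q_nonneg h x
    have hwδ : δ < w.im := hw
    nlinarith [mul_nonneg (mul_nonneg Real.pi_pos.le (sub_nonneg.2 hwδ.le)) this]
  have hz' : z ∈ {w : ℂ | δ < w.im} := half_lt_self (show 0 < z.im from hz)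
  exact ((hd z hz').differentiableAt (hU.mem_nhds hz')).differentiableWithinAt

lemma theta_add_one (h : EvenUnimodular B) (z : ℂ) : theta B (z + 1) = theta B z := by
  refine tsum_congr fun x ↦ ?_
  obtain ⟨m, hm⟩ := h.even x
  rw [term, term, show (π : ℂ) * I * (z + 1) * (Q B x : ℂ) = π * I * z * (Q B x : ℂ) + (m : ℤ) * (2 * π * I) by
    simp only [Q, hm]; push_cast; ring]
  rw [Complex.exp_add, Complex.exp_int_mul_two_pi_mul_I, mul_one]

lemma theta_mul_I (s : ℝ) :
    theta B (s * I) = ∑' x : Fin 24 → ℤ, cexp (-π * s * cqf (realMat B) (cv x)) := by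
  refine tsum_congr fun x ↦ ?_
  rw [term, cqf_cv, qf_realMat]
  congr 1
  push_cast
  linear_combination (π * s * (Q B x : ℂ)) * I_sq

/-- `x ↦ B x` as a bijection of the lattice. -/
noncomputable def mulEquiv (h : EvenUnimodular B) : (Fin 24 → ℤ) ≃ (Fin 24 → ℤ) where
  toFun x := B *ᵥ x
  invFun x := B⁻¹ *ᵥ x
  left_inv x := by
    simp only [Matrix.mulVec_mulVec]
    rw [Matrix.nonsing_inv_mul _ (by simp [h.det]), Matrix.one_mulVec]
  right_inv x := by
    simp only [Matrix.mulVec_mulVec]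
    rw [Matrix.mul_nonsing_inv _ (by simp [h.det]), Matrix.one_mulVec]

lemma theta_inv_mul_I (h : EvenUnimodular B) {s : ℝ} (hs : 0 < s) :
    theta B ((1 / s : ℝ) * I) = (s : ℂ) ^ 12 * theta B (s * I) := by
  obtain ⟨C, hC⟩ := poisson_gauss (realMat B) (isPos_realMat h)
  have key : ∀ t : ℝ, 0 < t →
      theta B (t * I) = C * ((t : ℂ) ^ 12)⁻¹ * theta B ((1 / t : ℝ) * I) := fun t ht ↦ by
    have := hC t ht 0
    simp only [zero_dotProduct, mul_zero, add_zero, Pi.zero_apply] at this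
    rw [theta_mul_I, this, theta_mul_I, ← (mulEquiv h).tsum_eq]
    congr 1
    · congr 1
      rw [← ofReal_pow, ← ofReal_pow, ← ofReal_inv, show (24 : ℕ) = 2 * 12 from rfl, pow_mul,
        inv_pow, Real.sq_sqrt ht.le, inv_pow]
    · refine tsum_congr fun x ↦ ?_
      have e : (fun i ↦ ((mulEquiv h x i : ℤ) : ℂ)) = (realMat B).map Complex.ofReal *ᵥ cv x := by
        funext i
        simp [mulEquiv, realMat, Matrix.mulVec, dotProduct, cv]
      rw [e, cqf, map_inv_mulVec (isPos_realMat h) rfl, cqf, dotProduct_comm]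
      congr 1
      push_cast
      ring
  have hne : theta B ((1 : ℝ) * I) ≠ 0 := by
    rw [theta_mul_I]
    have : ∀ x : Fin 24 → ℤ, cexp (-π * (1 : ℝ) * cqf (realMat B) (cv x)) =
        ((Real.exp (-π * 1 * (Q B x : ℝ)) : ℝ) : ℂ) := fun x ↦ by
      rw [cqf_cv, qf_realMat]; push_cast; rfl
    simp only [this, ← Complex.ofReal_tsum, ne_eq, Complex.ofReal_eq_zero]
    exact ((summable_exp_Q h one_pos).tsum_pos (fun x ↦ (Real.exp_pos _).le) 0 (Real.exp_pos _)).ne'
  have hC1 : C = 1 := by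
    have := key 1 one_pos
    simp at this hne
    exact (mul_eq_right₀ hne).1 this.symm
  have := key s hs
  rw [hC1, one_mul] at this
  rw [this, ← mul_assoc, mul_inv_cancel₀ (pow_ne_zero _ (by exact_mod_cast hs.ne')), one_mul]

lemma theta_S (h : EvenUnimodular B) {z : ℂ} (hz : 0 < z.im) :
    theta B (-1 / z) = z ^ 12 * theta B z := by
  set U := {w : ℂ | 0 < w.im}
  have hUo : IsOpen U := isOpen_lt continuous_const Complex.continuous_im
  have hUc : IsPreconnected U := (convex_halfSpace_im_gt 0).isPreconnected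
  have hmap : Set.MapsTo (fun w : ℂ ↦ -1 / w) U U := fun w (hw : 0 < w.im) ↦ by
    change 0 < (-1 / w).im
    have : 0 < Complex.normSq w := Complex.normSq_pos.2 fun e ↦ by simp [e] at hw
    rw [Complex.div_im]
    simp only [neg_im, one_im, neg_zero, zero_mul, zero_div, neg_re, one_re, zero_sub]
    rw [neg_mul, neg_div, neg_neg, one_mul]
    positivity
  have hf : AnalyticOnNhd ℂ (fun w ↦ theta B (-1 / w)) U := by
    refine DifferentiableOn.analyticOnNhd ?_ hUo
    refine (differentiableOn_theta h).comp ?_ hmap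
    refine (differentiableOn_const _).div differentiableOn_id fun w hw e ↦ ?_
    have e' : w = 0 := e
    simp [U, e'] at hw
  have hg : AnalyticOnNhd ℂ (fun w ↦ w ^ 12 * theta B w) U :=
    ((differentiableOn_pow 12).mul (differentiableOn_theta h)).analyticOnNhd hUo
  refine hf.eqOn_of_preconnected_of_frequently_eq hg hUc (show I ∈ U by simp [U]) ?_ hz
  have hT : Tendsto (fun t : ℝ ↦ (t : ℂ) * I) (𝓝[≠] 1) (𝓝[≠] I) := by
    refine tendsto_nhdsWithin_iff.2 ⟨?_, ?_⟩
    · refine tendsto_nhdsWithin_of_tendsto_nhds ?_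
      have hct : Continuous fun t : ℝ ↦ (t : ℂ) * I := by fun_prop
      simpa using hct.tendsto 1
    · filter_upwards [self_mem_nhdsWithin] with t ht e
      exact ht (by simpa using congrArg Complex.im e)
  refine Frequently.mono (hT.frequently (Eventually.frequently ?_)) fun x hx ↦ hx
  filter_upwards [nhdsWithin_le_nhds (lt_mem_nhds (zero_lt_one' ℝ))] with t ht
  have : -1 / ((t : ℂ) * I) = ((1 / t : ℝ) : ℂ) * I := by
    push_cast
    have : (t : ℂ) ≠ 0 := by exact_mod_cast ht.ne'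
    field_simp
    linear_combination (-1 : ℂ) * I_sq
  rw [this, theta_inv_mul_I h ht, mul_pow, show (I : ℂ) ^ 12 = 1 by rw [show 12 = 4 * 3 from rfl, pow_mul, I_pow_four, one_pow], mul_one]

/-- The theta series on the upper half plane. -/
noncomputable def thetaH (B : Matrix (Fin 24) (Fin 24) ℤ) : ℍ → ℂ := fun τ ↦ theta B τ

lemma thetaH_S (h : EvenUnimodular B) :
    thetaH B ∣[(12 : ℤ)] ModularGroup.S = thetaH B := by
  funext τ
  rw [ModularForm.SL_slash_apply, UpperHalfPlane.modular_S_smul]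
  simp only [thetaH]
  rw [show (-(τ : ℂ))⁻¹ = -1 / (τ : ℂ) by rw [inv_neg]; ring, theta_S h τ.im_pos]
  simp [UpperHalfPlane.denom, ModularGroup.coe_S]
  field_simp [UpperHalfPlane.ne_zero τ]

lemma thetaH_T (h : EvenUnimodular B) :
    thetaH B ∣[(12 : ℤ)] ModularGroup.T = thetaH B := by
  funext τ
  rw [ModularForm.SL_slash_apply, UpperHalfPlane.modular_T_smul]
  simp [thetaH, ModularGroup.coe_T, UpperHalfPlane.denom, add_comm (1 : ℂ), theta_add_one h]

/-- The number of lattice vectors of norm `2 m`. -/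
noncomputable def count (B : Matrix (Fin 24) (Fin 24) ℤ) (m : ℕ) : ℕ :=
  {x : Fin 24 → ℤ | Q B x = 2 * (m : ℤ)}.ncard

lemma finite_shell (h : EvenUnimodular B) (m : ℕ) :
    {x : Fin 24 → ℤ | Q B x = 2 * (m : ℤ)}.Finite := by
  have hev := (summable_exp_Q h one_pos).tendsto_cofinite_zero.eventually
    (gt_mem_nhds (Real.exp_pos (-π * 1 * (2 * m))))
  refine (eventually_cofinite.1 hev).subset fun x (hx : Q B x = 2 * (m : ℤ)) ↦ ?_
  simp [hx]

lemma hasSum_thetaH (h : EvenUnimodular B) (τ : ℍ) :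
    HasSum (fun m ↦ (count B m : ℂ) • Function.Periodic.qParam 1 τ ^ m) (thetaH B τ) := by
  set φ : (Fin 24 → ℤ) → ℕ := fun x ↦ (Q B x / 2).toNat
  have hφ : ∀ x m, φ x = m ↔ Q B x = 2 * (m : ℤ) := fun x m ↦ by
    obtain ⟨k, hk⟩ := h.even x
    have := Q_nonneg h x
    simp only [φ, Q] at *
    omega
  have hs : HasSum (fun p : Σ m, {x // φ x = m} ↦ term B p.2.1 τ) (thetaH B τ) :=
    ((Equiv.sigmaFiberEquiv φ).hasSum_iff).2 (summable_term h τ.im_pos).hasSum
  refine hs.sigma fun m ↦ ?_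
  have hfin : Finite {x // φ x = m} := ((finite_shell h m).subset fun x hx ↦ (hφ x m).1 hx).to_subtype
  have := Fintype.ofFinite {x // φ x = m}
  have hv : ∀ x : {x // φ x = m}, term B x.1 τ = Function.Periodic.qParam 1 τ ^ m := fun x ↦ by
    rw [term, (hφ _ _).1 x.2, Function.Periodic.qParam, ← Complex.exp_nat_mul]
    congr 1
    push_cast
    ring
  have := hasSum_fintype fun x : {x // φ x = m} ↦ term B x.1 τ
  simp only [hv] at this ⊢
  have hc : Fintype.card {x // φ x = m} = count B m := by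
    rw [count, ← Nat.card_coe_set_eq, ← Nat.card_eq_fintype_card]
    exact Nat.card_congr (Equiv.subtypeEquivRight fun x ↦ hφ x m)
  simpa [hc] using this

/-- The theta series as a modular form of weight 12. -/
noncomputable def thetaForm (h : EvenUnimodular B) : ModularForm 𝒮ℒ 12 where
  toFun := thetaH B
  slash_action_eq' A hA := by
    obtain ⟨A, rfl⟩ := hA
    exact SlashInvariantForm.slash_action_generators_SL2Z (thetaH_S h) (thetaH_T h) A
  holo' := by
    rw [UpperHalfPlane.mdifferentiable_iff]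
    refine (differentiableOn_theta h).congr fun z hz ↦ ?_
    simp [thetaH, ofComplex_apply_of_im_pos hz]
  bdd_at_cusps' hc := by
    rw [Subgroup.IsArithmetic.isCusp_iff_isCusp_SL2Z] at hc
    rw [OnePoint.isBoundedAt_iff_forall_SL2Z hc]
    intro γ _
    rw [SlashInvariantForm.slash_action_generators_SL2Z (thetaH_S h) (thetaH_T h)]
    exact UpperHalfPlane.isBoundedAtImInfty_of_hasSum_qExpansion one_pos (hasSum_thetaH h)

theorem thetaForm_coeff (h : EvenUnimodular B) (m : ℕ) :
    (qExpansion 1 (thetaForm h)).coeff m = (count B m : ℂ) :=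
  (ModularFormClass.qExpansion_coeff_unique one_pos one_mem_strictPeriods_SL
    (f := thetaForm h) (hasSum_thetaH h) m).symm

end Cfsg.Agent.Theta
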